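import Cfsg.Agent.Lib.StBlocks.Stein

/-!
A finer description of the `p`-blocks of a group with a split `(B,N)`-pair.
-/

set_option autoImplicit false
set_option linter.unusedSectionVars false

namespace Cfsg.Agent.Lib.StBlocks.Fine

open Cfsg Cfsg.Agent.Lib.ModHecke.Core Cfsg.Agent.Lib.StBlocks.Form Cfsg.Agent.Lib.StBlocks.Count
open Cfsg.Agent.Lib.BNPair.Basic Cfsg.Agent.Lib.ChevOrder.BNCount Cfsg.Agent.Lib.StChar.Inner
open Cfsg.Agent.Lib.StChar.Gate Cfsg.Agent.Lib.ModHecke.Frob Cfsg.Agent.Lib.StBlocks.Stein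
open scoped Classical

universe u

variable {G : Type u} [Group G] [Fintype G] {P : Cfsg.BNPair G} {p : ℕ} {F : Type*} [Field F] [Fintype F]
  {ι : Type*} [Fintype ι] [DecidableEq ι] (S : Spl P p F ι)

variable {M : Ideal AlgInt} [hMp : M.IsPrime]

/-- The Steinberg character on central elements of the torus. -/
theorem stChar_central {w : WW P}
    (htop : ∀ i, LL P (w * ff S.e S.he i) < LL P w) {z : G} (hz : z ∈ Zz P) :
    stChar P S.e z = stChar P S.e 1 := by
  rw [stChar_apply (setupS S) hz.1.1 htop, stChar_apply (setupS S) P.B.one_mem htop]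
  congr 1
  refine Nat.card_congr (Equiv.subtypeEquivRight fun C => ?_)
  rw [one_smul]
  refine and_congr_right fun _ => ?_
  have : z • C = C := by
    obtain ⟨x, rfl⟩ := QuotientGroup.mk_surjective C
    rw [show z • (QuotientGroup.mk x : G ⧸ P.B) = QuotientGroup.mk (z * x) from rfl, QuotientGroup.eq]
    have hc : z * x = x * z := (Subgroup.mem_center_iff.1 hz.2 x).symm
    have h1 : (z * x)⁻¹ * x = z⁻¹ := by
      rw [hc]
      group
    rw [h1]
    exact P.B.inv_mem hz.1.1
  exact iff_of_true this rfl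

/-- The finer description of the blocks. -/
theorem fine_split [Nonempty ι] (D : Dat S) (hM : IsPModular p M) (n : P.N)
    (htop : ∀ i, LL P ((QuotientGroup.mk n : WW P) * ff S.e S.he i) < LL P (QuotientGroup.mk n))
    (hT : ∀ x ∈ P.B, (n : G)⁻¹ * x * n ∈ P.B → x ∈ P.B ⊓ P.N) (hv : p ∣ Nat.card G) :
    charDegree ((stIrr S : IrrCharacter G) : G → ℂ) = Nat.card S.U ∧
    (∀ z ∈ Zz P, ((stIrr S : IrrCharacter G) : G → ℂ) z = ((stIrr S : IrrCharacter G) : G → ℂ) 1) ∧
    blockOf M ((stIrr S : IrrCharacter G) : G → ℂ) = {stIrr S} ∧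
    (∀ χ ψ : IrrCharacter G, χ ≠ stIrr S → ψ ≠ stIrr S →
      (ψ ∈ blockOf M (χ : G → ℂ) ↔ cen (Zz P) Zz_le χ = cen (Zz P) Zz_le ψ)) ∧
    (∀ χ : IrrCharacter G, Nat.card S.U ∣ charDegree (χ : G → ℂ) → χ = stIrr S) := by
  have hdeg : charDegree ((stIrr S : IrrCharacter G) : G → ℂ) = p ^ (Nat.card G).factorization p := by
    have h1 := degree_eq (stIrr S)
    have h2 : ((stIrr S : IrrCharacter G) : G → ℂ) 1 = (Nat.card S.U : ℂ) := stChar_one S n htop hT
    rw [h2] at h1
    rw [pow_fact S]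
    exact_mod_cast h1.symm
  obtain ⟨-, -, h3⟩ := blocks_main S D hM (stIrr S) (by rw [hdeg]) hv
  have hsing := blockOf_singleton hM (stIrr S) (by rw [hdeg])
  have hpSt : p ∣ charDegree ((stIrr S : IrrCharacter G) : G → ℂ) := by
    rw [hdeg]
    refine dvd_pow_self p ?_
    have := hM.1.factorization_pos_of_dvd (Nat.card_pos (α := G)).ne' hv
    omega
  choose chiL h1 h2 h4 using exists_chi (M := M) S D hM
  have hne : ∀ l, chiL l ≠ stIrr S := fun l h => h1 l (h ▸ hpSt)
  have hStB : FormB S (omb M (stIrr S)) := by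
    rcases omb_cases S D hM (stIrr S) with h | h
    · exfalso
      have h5 := omb_eq_of_forms S h (h4 (cen (Zz P) Zz_le (stIrr S))) (h2 _).symm
      have h6 : chiL (cen (Zz P) Zz_le (stIrr S)) ∈ blockOf M ((stIrr S : IrrCharacter G) : G → ℂ) := mem_blockOf_iff.2 h5
      rw [hsing] at h6
      exact hne _ h6
    · exact h
  have hA : ∀ χ : IrrCharacter G, χ ≠ stIrr S → FormA S (omb M χ) := by
    intro χ hχ
    rcases omb_cases S D hM χ with h | h
    · exact h
    · exfalso
      have h5 := formB_eq S hStB h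
      have h6 : χ ∈ blockOf M ((stIrr S : IrrCharacter G) : G → ℂ) := mem_blockOf_iff.2 h5
      rw [hsing] at h6
      exact hχ h6
  refine ⟨?_, ?_, hsing, ?_, ?_⟩
  · rw [hdeg, pow_fact S]
  · intro z hz
    exact stChar_central S htop hz
  · intro χ ψ hχ hψ
    constructor
    · intro h
      exact cen_eq_of_omb hM Zz_le (not_dvd_card_Zz S) fun z => congrFun (mem_blockOf_iff.1 h) z
    · intro h
      exact mem_blockOf_iff.2 (omb_eq_of_forms S (hA χ hχ) (hA ψ hψ) h)
  · intro χ hχ
    have h5 : blockOf M (χ : G → ℂ) = {χ} := blockOf_singleton hM χ (by rwa [pow_fact S])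
    rcases h3 _ ⟨χ, rfl⟩ with h | ⟨ψ, hψ, hnd⟩
    · rw [h5] at h
      exact Set.singleton_injective h
    · rw [h5, Set.mem_singleton_iff] at hψ
      subst hψ
      exfalso
      apply hnd
      have h6 : p ∣ Nat.card S.U := by
        rw [← pow_fact S]
        refine dvd_pow_self p ?_
        have := hM.1.factorization_pos_of_dvd (Nat.card_pos (α := G)).ne' hv
        omega
      exact h6.trans hχ

end Cfsg.Agent.Lib.StBlocks.Fine
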