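import Cfsg.Agent.Lib.StBlocks.Count

/-!
The three blocks of a group with a central involution `neg`, in which the classification of the blocks is given by a
Steinberg character and the value at `neg`.
-/

set_option autoImplicit false
set_option linter.unusedSectionVars false

namespace Cfsg.Agent.Lib.StBlocks.Two

open Cfsg Cfsg.Agent.Lib.StBlocks.Count Cfsg.Agent.Lib.Blocks.Local Cfsg.Agent.Lib.Blocks.Osima
open scoped ComplexConjugate

universe u

variable {G : Type u} [Group G] [Fintype G] {M : Ideal AlgInt} [hMp : M.IsPrime] {p : ℕ}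

/-- The first set. -/
def setA (q : ℕ) : Set (IrrCharacter G) := {χ | (χ : G → ℂ) 1 = (q : ℂ)}

/-- The second set. -/
def setP (neg : G) (q : ℕ) : Set (IrrCharacter G) :=
  {χ | (χ : G → ℂ) neg = (χ : G → ℂ) 1 ∧ (χ : G → ℂ) 1 ≠ (q : ℂ)}

/-- The third set. -/
def setM (neg : G) : Set (IrrCharacter G) := {χ | (χ : G → ℂ) neg = -(χ : G → ℂ) 1}

theorem eps_cases {neg : G} (hnegc : neg ∈ Subgroup.center G) (hneg2 : neg * neg = 1) (χ : IrrCharacter G) :
    (χ : G → ℂ) neg = (χ : G → ℂ) 1 ∨ (χ : G → ℂ) neg = -(χ : G → ℂ) 1 := by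
  have h0 := Cfsg.Agent.Lib.Char.Ortho.irr_apply_one_ne_zero χ.2
  have h1 := central_mul χ.2 hnegc neg
  rw [hneg2] at h1
  have h2 : (χ : G → ℂ) neg ^ 2 = (χ : G → ℂ) 1 ^ 2 := by
    field_simp at h1
    rw [h1]
  exact sq_eq_sq_iff_eq_or_eq_neg.1 h2

theorem conj_degree (χ : IrrCharacter G) : conj ((χ : G → ℂ) 1) = (χ : G → ℂ) 1 := by
  rw [degree_eq]
  simp

section Sums

variable [Fintype (IrrCharacter G)]

open scoped Classical in
theorem sums {neg : G} (hneg1 : neg ≠ 1) (hnegc : neg ∈ Subgroup.center G) (hneg2 : neg * neg = 1) :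
    ∑ χ ∈ Finset.univ.filter (fun χ : IrrCharacter G => (χ : G → ℂ) neg = (χ : G → ℂ) 1),
        (χ : G → ℂ) 1 * (χ : G → ℂ) 1 = (Nat.card G : ℂ) / 2 ∧
    ∑ χ ∈ Finset.univ.filter (fun χ : IrrCharacter G => (χ : G → ℂ) neg = -(χ : G → ℂ) 1),
        (χ : G → ℂ) 1 * (χ : G → ℂ) 1 = (Nat.card G : ℂ) / 2 := by
  have hcol : ∀ g : G, ∑ χ : IrrCharacter G, (χ : G → ℂ) 1 * (χ : G → ℂ) g =
      if g = 1 then (Nat.card G : ℂ) else 0 := Cfsg.Agent.Lib.Char.Burnside2.sum_degree_mul_character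
  have hne : ∀ χ : IrrCharacter G, ¬ (χ : G → ℂ) neg = (χ : G → ℂ) 1 ↔ (χ : G → ℂ) neg = -(χ : G → ℂ) 1 := by
    intro χ
    have h0 := Cfsg.Agent.Lib.Char.Ortho.irr_apply_one_ne_zero χ.2
    constructor
    · intro h
      exact (eps_cases hnegc hneg2 χ).resolve_left h
    · intro h h2
      rw [h] at h2
      have : (2 : ℂ) * (χ : G → ℂ) 1 = 0 := by linear_combination -h2
      exact h0 ((mul_eq_zero.1 this).resolve_left two_ne_zero)
  have hfilt : Finset.univ.filter (fun χ : IrrCharacter G => (χ : G → ℂ) neg = -(χ : G → ℂ) 1) =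
      Finset.univ.filter (fun χ : IrrCharacter G => ¬ (χ : G → ℂ) neg = (χ : G → ℂ) 1) :=
    Finset.filter_congr fun χ _ => (hne χ).symm
  have h1 := Finset.sum_filter_add_sum_filter_not (Finset.univ : Finset (IrrCharacter G))
    (fun χ : IrrCharacter G => (χ : G → ℂ) neg = (χ : G → ℂ) 1) (fun χ : IrrCharacter G => (χ : G → ℂ) 1 * (χ : G → ℂ) 1)
  have h2 := Finset.sum_filter_add_sum_filter_not (Finset.univ : Finset (IrrCharacter G))
    (fun χ : IrrCharacter G => (χ : G → ℂ) neg = (χ : G → ℂ) 1) (fun χ : IrrCharacter G => (χ : G → ℂ) 1 * (χ : G → ℂ) neg)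
  rw [hcol 1, if_pos rfl] at h1
  rw [hcol neg, if_neg hneg1] at h2
  have h3 : ∑ χ ∈ Finset.univ.filter (fun χ : IrrCharacter G => (χ : G → ℂ) neg = (χ : G → ℂ) 1),
      (χ : G → ℂ) 1 * (χ : G → ℂ) neg = ∑ χ ∈ Finset.univ.filter (fun χ : IrrCharacter G => (χ : G → ℂ) neg = (χ : G → ℂ) 1),
      (χ : G → ℂ) 1 * (χ : G → ℂ) 1 := by
    refine Finset.sum_congr rfl fun χ hχ => ?_
    rw [(Finset.mem_filter.1 hχ).2]
  have h4 : ∑ χ ∈ Finset.univ.filter (fun χ : IrrCharacter G => ¬ (χ : G → ℂ) neg = (χ : G → ℂ) 1),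
      (χ : G → ℂ) 1 * (χ : G → ℂ) neg = - ∑ χ ∈ Finset.univ.filter (fun χ : IrrCharacter G => ¬ (χ : G → ℂ) neg = (χ : G → ℂ) 1),
      (χ : G → ℂ) 1 * (χ : G → ℂ) 1 := by
    rw [← Finset.sum_neg_distrib]
    refine Finset.sum_congr rfl fun χ hχ => ?_
    rw [(hne χ).1 (Finset.mem_filter.1 hχ).2]
    ring
  rw [h3, h4] at h2
  rw [hfilt]
  constructor
  · linear_combination (1 / 2 : ℂ) * h1 + (1 / 2 : ℂ) * h2
  · linear_combination (1 / 2 : ℂ) * h1 - (1 / 2 : ℂ) * h2

end Sums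

theorem defect_of_class {B : Set (IrrCharacter G)} (hB : MemLocalRing M (blockCoeff B 1))
    (hB' : ¬ MemLocalIdeal M (blockCoeff B 1)) (P : Sylow p G) :
    IsDefectGroup p M B (P : Subgroup G) := by
  have hle : (P : Subgroup G) ≤ Subgroup.centralizer ({1} : Set G) := by
    intro x _
    rw [Subgroup.mem_centralizer_iff]
    intro h hh
    rw [Set.mem_singleton_iff] at hh
    subst hh
    simp
  refine ⟨1, ⟨hB, hB', fun χ _ => ?_⟩, P.subtype hle, ?_⟩
  · rw [centralChar_central (Subgroup.one_mem _), div_self (Cfsg.Agent.Lib.Char.Ortho.irr_apply_one_ne_zero χ.2)]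
    exact not_memLocalIdeal_one
  · rw [Sylow.coe_subtype, Subgroup.map_subgroupOf_eq_of_le hle]

/-- The block theorem from the classification in terms of the central involution. -/
theorem main (hM : IsPModular p M) (hp2 : p ≠ 2) {neg : G} (hneg1 : neg ≠ 1) (hnegc : neg ∈ Subgroup.center G)
    (hneg2 : neg * neg = 1) {q m : ℕ} (hq : p ∣ q) (hG : Nat.card G = q * m) (hm : ¬ p ∣ m) (St : IrrCharacter G)
    (hd : charDegree (St : G → ℂ) = q) (h1 : (St : G → ℂ) neg = (St : G → ℂ) 1)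
    (h2 : blockOf M (St : G → ℂ) = {St})
    (h3 : ∀ χ ψ : IrrCharacter G, χ ≠ St → ψ ≠ St →
      (ψ ∈ blockOf M (χ : G → ℂ) ↔ (χ : G → ℂ) neg / (χ : G → ℂ) 1 = (ψ : G → ℂ) neg / (ψ : G → ℂ) 1))
    (h4 : ∀ χ : IrrCharacter G, q ∣ charDegree (χ : G → ℂ) → χ = St) :
    (∀ B : Set (IrrCharacter G), IsPBlock M B ↔ (B = setA q ∨ B = setP neg q ∨ B = setM neg)) ∧
      ∀ P : Sylow p G, IsDefectGroup p M (setP neg q) (P : Subgroup G) ∧ IsDefectGroup p M (setM neg) (P : Subgroup G) := by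
  classical
  have : Fintype (IrrCharacter G) := Fintype.ofFinite _
  have hne0 : ∀ χ : IrrCharacter G, (χ : G → ℂ) 1 ≠ 0 := fun χ => Cfsg.Agent.Lib.Char.Ortho.irr_apply_one_ne_zero χ.2
  have hSt1 : (St : G → ℂ) 1 = (q : ℂ) := by
    rw [degree_eq, hd]
  have hmemA : ∀ χ : IrrCharacter G, (χ : G → ℂ) 1 = (q : ℂ) ↔ χ = St := by
    intro χ
    constructor
    · intro h
      rw [degree_eq] at h
      have h5 : charDegree (χ : G → ℂ) = q := by exact_mod_cast h
      exact h4 χ (h5 ▸ dvd_rfl)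
    · rintro rfl
      exact hSt1
  have hSA : setA q = ({St} : Set (IrrCharacter G)) := by
    ext χ
    exact hmemA χ
  have hnotM : ∀ χ : IrrCharacter G, χ = St → (χ : G → ℂ) neg ≠ -(χ : G → ℂ) 1 := by
    rintro χ rfl h
    rw [h1] at h
    have : (2 : ℂ) * (χ : G → ℂ) 1 = 0 := by linear_combination h
    exact hne0 χ ((mul_eq_zero.1 this).resolve_left two_ne_zero)
  have hnotSt : ∀ χ : IrrCharacter G, χ ≠ St → St ∉ blockOf M (χ : G → ℂ) := by
    intro χ hχ h
    have h5 : χ ∈ blockOf M (St : G → ℂ) := mem_blockOf_iff.2 (mem_blockOf_iff.1 h).symm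
    rw [h2] at h5
    exact hχ h5
  have hP : ∀ χ : IrrCharacter G, χ ≠ St → (χ : G → ℂ) neg = (χ : G → ℂ) 1 → blockOf M (χ : G → ℂ) = setP neg q := by
    intro χ hχ hχ1
    ext ψ
    by_cases hψ : ψ = St
    · subst hψ
      constructor
      · intro h
        exact absurd h (hnotSt χ hχ)
      · rintro ⟨-, h⟩
        exact absurd hSt1 h
    · rw [h3 χ ψ hχ hψ, hχ1, div_self (hne0 χ)]
      constructor
      · intro h
        refine ⟨?_, fun h5 => hψ ((hmemA ψ).1 h5)⟩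
        have := hne0 ψ
        field_simp at h
        exact h.symm
      · rintro ⟨h, -⟩
        rw [h, div_self (hne0 ψ)]
  have hM' : ∀ χ : IrrCharacter G, χ ≠ St → (χ : G → ℂ) neg = -(χ : G → ℂ) 1 → blockOf M (χ : G → ℂ) = setM neg := by
    intro χ hχ hχ1
    have e1 : (χ : G → ℂ) neg / (χ : G → ℂ) 1 = -1 := by
      rw [hχ1, neg_div, div_self (hne0 χ)]
    ext ψ
    by_cases hψ : ψ = St
    · constructor
      · intro h
        rw [hψ] at h
        exact absurd h (hnotSt χ hχ)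
      · intro h
        exact absurd h (hnotM ψ hψ)
    · rw [h3 χ ψ hχ hψ, e1]
      constructor
      · intro h
        have := hne0 ψ
        field_simp at h
        show (ψ : G → ℂ) neg = -(ψ : G → ℂ) 1
        linear_combination -h
      · intro h
        have h' : (ψ : G → ℂ) neg = -(ψ : G → ℂ) 1 := h
        rw [h', neg_div, div_self (hne0 ψ)]
  obtain ⟨hs1, hs2⟩ := sums hneg1 hnegc hneg2
  have hcardG : (Nat.card G : ℂ) ≠ 0 := by exact_mod_cast Nat.card_pos.ne'
  have hqm : q ≠ 0 ∧ m ≠ 0 := by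
    have : q * m ≠ 0 := hG ▸ Nat.card_pos.ne'
    exact ⟨left_ne_zero_of_mul this, right_ne_zero_of_mul this⟩
  have hq0 : (q : ℂ) ≠ 0 := by exact_mod_cast hqm.1
  have hm0 : (m : ℂ) ≠ 0 := by exact_mod_cast hqm.2
  have hexM : ∃ χ : IrrCharacter G, (χ : G → ℂ) neg = -(χ : G → ℂ) 1 := by
    by_contra hno
    push Not at hno
    have h5 : Finset.univ.filter (fun χ : IrrCharacter G => (χ : G → ℂ) neg = -(χ : G → ℂ) 1) = ∅ :=
      Finset.filter_false_of_mem fun χ _ => hno χ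
    rw [h5, Finset.sum_empty] at hs2
    have h6 : (Nat.card G : ℂ) / 2 ≠ 0 := div_ne_zero hcardG two_ne_zero
    exact h6 hs2.symm
  have hone : (oneIrr G : IrrCharacter G) ≠ St := by
    intro h
    have h5 := hmemA (oneIrr G)
    have h6 : ((oneIrr G : IrrCharacter G) : G → ℂ) 1 = (q : ℂ) := h5.2 h
    have h7 : (q : ℂ) = 1 := h6.symm
    have h8 : q = 1 := by exact_mod_cast h7
    rw [h8] at hq
    exact hM.1.one_lt.not_ge (Nat.le_of_dvd one_pos hq)
  have hneg2p : ¬ p ∣ 2 := fun h => hp2 ((Nat.prime_dvd_prime_iff_eq hM.1 Nat.prime_two).1 h)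
  have hhalfR : MemLocalRing M ((2 : ℂ)⁻¹) := by
    have := memLocalRing_inv_natCast hM hneg2p
    simpa using this
  have hhalfI : ¬ MemLocalIdeal M ((2 : ℂ)⁻¹) := by
    refine not_memLocalIdeal_of_inv ?_ (inv_ne_zero two_ne_zero)
    rw [inv_inv]
    have := memLocalRing_natCast (M := M) 2
    simpa using this
  have hconj : ∀ A : Set (IrrCharacter G), blockCoeff A 1 = (Nat.card G : ℂ)⁻¹ *
      ∑ χ ∈ Finset.univ.filter (· ∈ A), (χ : G → ℂ) 1 * (χ : G → ℂ) 1 := by
    intro A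
    rw [blockCoeff_eq_sum]
    congr 1
    refine Finset.sum_congr (by ext; simp) fun χ _ => ?_
    rw [conj_degree]
  have hcM : blockCoeff (setM neg) 1 = (2 : ℂ)⁻¹ := by
    rw [hconj]
    have e : Finset.univ.filter (· ∈ setM neg) =
        Finset.univ.filter (fun χ : IrrCharacter G => (χ : G → ℂ) neg = -(χ : G → ℂ) 1) := rfl
    rw [e, hs2]
    field_simp
  have hcP : blockCoeff (setP neg q) 1 = (2 : ℂ)⁻¹ - (q : ℂ) * (m : ℂ)⁻¹ := by
    rw [hconj]
    have e : Finset.univ.filter (· ∈ setP neg q) =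
        (Finset.univ.filter (fun χ : IrrCharacter G => (χ : G → ℂ) neg = (χ : G → ℂ) 1)).erase St := by
      ext χ
      rw [Finset.mem_filter, Finset.mem_erase, Finset.mem_filter]
      constructor
      · rintro ⟨h0, h5, h6⟩
        exact ⟨fun h7 => h6 ((hmemA χ).2 h7), h0, h5⟩
      · rintro ⟨h5, h0, h6⟩
        exact ⟨h0, h6, fun h7 => h5 ((hmemA χ).1 h7)⟩
    have hSt : St ∈ Finset.univ.filter (fun χ : IrrCharacter G => (χ : G → ℂ) neg = (χ : G → ℂ) 1) :=
      Finset.mem_filter.2 ⟨Finset.mem_univ _, h1⟩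
    rw [e, Finset.sum_erase_eq_sub hSt, hs1, hSt1, hG]
    push_cast
    field_simp
  have hqI : MemLocalIdeal M ((q : ℂ) * (m : ℂ)⁻¹) :=
    memLocalIdeal_mul_right ((memLocalIdeal_natCast_iff hM).2 hq) (memLocalRing_inv_natCast hM hm)
  refine ⟨?_, fun P => ⟨?_, ?_⟩⟩
  · intro B
    constructor
    · rintro ⟨χ, rfl⟩
      by_cases hχ : χ = St
      · left
        rw [hχ, h2, hSA]
      · rcases eps_cases hnegc hneg2 χ with h | h
        · right
          left
          exact hP χ hχ h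
        · right
          right
          exact hM' χ hχ h
    · rintro (rfl | rfl | rfl)
      · exact ⟨St, by rw [h2, hSA]⟩
      · exact ⟨oneIrr G, (hP _ hone rfl).symm⟩
      · obtain ⟨χ, hχ⟩ := hexM
        exact ⟨χ, (hM' χ (fun h => hnotM χ h hχ) hχ).symm⟩
  · refine defect_of_class ?_ ?_ P
    · rw [hcP]
      exact memLocalRing_sub hhalfR (memLocalRing_of_memLocalIdeal hqI)
    · rw [hcP]
      intro h
      apply hhalfI
      have := memLocalIdeal_add h hqI
      simpa using this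
  · refine defect_of_class ?_ ?_ P
    · rw [hcM]
      exact hhalfR
    · rw [hcM]
      exact hhalfI

end Cfsg.Agent.Lib.StBlocks.Two
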