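import Cfsg.Agent.Lib.StBlocks.SLMain
import Cfsg.Agent.Lib.StBlocks.Fine
import Cfsg.Agent.Lib.StBlocks.Two

/-!
The three `p`-blocks of `SL_2(F)` in odd defining characteristic.
-/

set_option autoImplicit false
set_option linter.unusedSectionVars false
set_option linter.unusedSimpArgs false

namespace Cfsg.Agent.Lib.StBlocks.SL2

open Matrix Cfsg Cfsg.Agent.Lib.Linalg.AutPSLSylow Cfsg.Agent.Lib.StBlocks.SLBasic
open Cfsg.Agent.Lib.StBlocks.SLPair Cfsg.Agent.Lib.StBlocks.SLSpl Cfsg.Agent.Lib.StBlocks.SLDat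
open Cfsg.Agent.Lib.StBlocks.SLMain Cfsg.Agent.Lib.StBlocks.Fine Cfsg.Agent.Lib.StBlocks.Stein
open Cfsg.Agent.Lib.StBlocks.Form Cfsg.Agent.Lib.ModHecke.Core Cfsg.Agent.Lib.StBlocks.Count
open Cfsg.Agent.Lib.BNPair.Basic Cfsg.Agent.Lib.ChevOrder.BNCount Cfsg.Agent.Lib.ModHecke.Frob
open Cfsg.Agent.Lib.StChar.Cox

variable {F : Type*} [Field F] [Fintype F] {p : ℕ} [hp : Fact p.Prime] [CharP F p]

/-- The finer description of the blocks of `SL_n(F)`. -/
theorem fine_SL {m : ℕ} {M : Ideal AlgInt} (hM : IsPModular p M) [M.IsPrime]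
    [Fintype (Matrix.SpecialLinearGroup (Fin (m + 2)) F)] :
    charDegree ((stIrr (spl m F p) : IrrCharacter _) : Matrix.SpecialLinearGroup (Fin (m + 2)) F → ℂ) =
      Nat.card (spl m F p).U ∧
    (∀ z ∈ Zz (bn m F), ((stIrr (spl m F p) : IrrCharacter _) : Matrix.SpecialLinearGroup (Fin (m + 2)) F → ℂ) z =
      ((stIrr (spl m F p) : IrrCharacter _) : Matrix.SpecialLinearGroup (Fin (m + 2)) F → ℂ) 1) ∧
    blockOf M ((stIrr (spl m F p) : IrrCharacter _) : Matrix.SpecialLinearGroup (Fin (m + 2)) F → ℂ) = {stIrr (spl m F p)} ∧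
    (∀ χ ψ : IrrCharacter (Matrix.SpecialLinearGroup (Fin (m + 2)) F), χ ≠ stIrr (spl m F p) → ψ ≠ stIrr (spl m F p) →
      (ψ ∈ blockOf M (χ : Matrix.SpecialLinearGroup (Fin (m + 2)) F → ℂ) ↔ cen (Zz (bn m F)) Zz_le χ = cen (Zz (bn m F)) Zz_le ψ)) ∧
    (∀ χ : IrrCharacter (Matrix.SpecialLinearGroup (Fin (m + 2)) F),
      Nat.card (spl m F p).U ∣ charDegree (χ : Matrix.SpecialLinearGroup (Fin (m + 2)) F → ℂ) → χ = stIrr (spl m F p)) := by
  have hs := setupS (spl m F p)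
  obtain ⟨y, -, h1, h2⟩ := exists_top hs (Set.univ : Set (Fin (m + 1)))
  obtain ⟨n, rfl⟩ := QuotientGroup.mk_surjective y
  obtain ⟨π, hπ⟩ := n.2
  have hanti := strictAnti_of_top hπ (fun i => by
    have h3 := h1 i (Set.mem_univ _)
    rw [ff_mk_mul, LL_mk, LL_mk] at h3
    exact h3)
  exact fine_split (spl m F p) (dat m F p) hM n (fun i => h2 i (Set.mem_univ _))
    (fun x hx hy => mem_T_of_anti hπ hanti hx hy) (hv p)

/-- The three blocks. -/
theorem blocks_SL2 (hp2 : p ≠ 2) {M : Ideal AlgInt} (hM : IsPModular p M) :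
    (∀ B : Set (IrrCharacter (Matrix.SpecialLinearGroup (Fin 2) F)), IsPBlock M B ↔
      (B = Two.setA (G := Matrix.SpecialLinearGroup (Fin 2) F) (Fintype.card F) ∨
       B = Two.setP (-1 : Matrix.SpecialLinearGroup (Fin 2) F) (Fintype.card F) ∨
       B = Two.setM (-1 : Matrix.SpecialLinearGroup (Fin 2) F))) ∧
    Nat.card {B : Set (IrrCharacter (Matrix.SpecialLinearGroup (Fin 2) F)) // IsPBlock M B} = 3 ∧
    ∀ P : Sylow p (Matrix.SpecialLinearGroup (Fin 2) F),
      IsDefectGroup p M (Two.setP (-1 : Matrix.SpecialLinearGroup (Fin 2) F) (Fintype.card F)) (P : Subgroup _) ∧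
      IsDefectGroup p M (Two.setM (-1 : Matrix.SpecialLinearGroup (Fin 2) F)) (P : Subgroup _) := by
  classical
  let _ : Fintype (Matrix.SpecialLinearGroup (Fin 2) F) := Fintype.ofFinite _
  let _ : Fintype (Matrix.SpecialLinearGroup (Fin (0 + 2)) F) := Fintype.ofFinite _
  have : M.IsPrime := hM.2.1.isPrime
  have hdn : (Matrix.diagonal fun _ : Fin 2 => (-1 : F)) = -1 := by
    ext i j
    by_cases h : i = j
    · simp [h]
    · simp [h, Matrix.one_apply]
  have h2ne : (2 : F) ≠ 0 := by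
    intro h
    have h1 := (CharP.cast_eq_zero_iff F p 2).1 (by exact_mod_cast h)
    exact hp2 ((Nat.prime_dvd_prime_iff_eq hp.out Nat.prime_two).1 h1)
  have hneg1 : (-1 : Matrix.SpecialLinearGroup (Fin 2) F) ≠ 1 := by
    intro h
    have h1 := congrArg (fun g : Matrix.SpecialLinearGroup (Fin 2) F => (g : Matrix (Fin 2) (Fin 2) F) 0 0) h
    simp only [Matrix.SpecialLinearGroup.coe_neg, Matrix.SpecialLinearGroup.coe_one, Matrix.neg_apply,
      Matrix.one_apply_eq] at h1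
    apply h2ne
    linear_combination -h1
  have hnegc : (-1 : Matrix.SpecialLinearGroup (Fin 2) F) ∈ Subgroup.center _ := by
    rw [Matrix.SpecialLinearGroup.mem_center_iff]
    refine ⟨-1, by simp, ?_⟩
    simp [hdn]
  have hneg2 : (-1 : Matrix.SpecialLinearGroup (Fin 2) F) * (-1) = 1 := by simp
  have hcent : ∀ z ∈ Subgroup.center (Matrix.SpecialLinearGroup (Fin 2) F), z = 1 ∨ z = -1 := by
    intro z hz
    obtain ⟨r, hr, hrz⟩ := Matrix.SpecialLinearGroup.mem_center_iff.1 hz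
    have hr2 : r * r = 1 := by
      have : r ^ 2 = 1 := by simpa using hr
      rwa [pow_two] at this
    rcases mul_self_eq_one_iff.1 hr2 with rfl | rfl
    · left
      apply Subtype.ext
      rw [← hrz]
      simp
    · right
      apply Subtype.ext
      rw [← hrz]
      simp [hdn]
  obtain ⟨hd, hz, hsing, hcen, huniq⟩ := fine_SL (m := 0) (F := F) (p := p) hM
  have hU : Nat.card (spl 0 F p).U = Fintype.card F := by
    show Nat.card (USL (0 + 2) F) = _
    rw [card_USL, Nat.card_eq_fintype_card]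
    simp [Fin.sum_univ_two]
  have hneZ : (-1 : Matrix.SpecialLinearGroup (Fin 2) F) ∈ Zz (bn 0 F) := by
    rw [Zz_eq]
    exact hnegc
  have hG : Nat.card (Matrix.SpecialLinearGroup (Fin 2) F) = Fintype.card F * (spl 0 F p).U.index := by
    rw [← hU]
    exact (spl 0 F p).U.card_mul_index.symm
  have h3 : ∀ χ ψ : IrrCharacter (Matrix.SpecialLinearGroup (Fin 2) F), χ ≠ stIrr (spl 0 F p) → ψ ≠ stIrr (spl 0 F p) →
      (ψ ∈ blockOf M (χ : Matrix.SpecialLinearGroup (Fin 2) F → ℂ) ↔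
        (χ : Matrix.SpecialLinearGroup (Fin 2) F → ℂ) (-1) / (χ : Matrix.SpecialLinearGroup (Fin 2) F → ℂ) 1 =
        (ψ : Matrix.SpecialLinearGroup (Fin 2) F → ℂ) (-1) / (ψ : Matrix.SpecialLinearGroup (Fin 2) F → ℂ) 1) := by
    intro χ ψ hχ hψ
    rw [hcen χ ψ hχ hψ]
    constructor
    · intro h
      have h1 := congrArg (fun l : ↥(Zz (bn 0 F)) →* ℂˣ =>
        ((l ⟨(show Matrix.SpecialLinearGroup (Fin (0 + 2)) F from (-1 : Matrix.SpecialLinearGroup (Fin 2) F)), hneZ⟩ : ℂˣ) : ℂ)) h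
      simp only [coe_cen] at h1
      exact h1
    · intro h
      ext z
      rw [coe_cen, coe_cen]
      have hzc : (z : Matrix.SpecialLinearGroup (Fin (0 + 2)) F) ∈ Subgroup.center (Matrix.SpecialLinearGroup (Fin 2) F) := z.2.2
      rcases hcent _ hzc with h5 | h5
      · rw [h5, div_self (Cfsg.Agent.Lib.Char.Ortho.irr_apply_one_ne_zero χ.2),
          div_self (Cfsg.Agent.Lib.Char.Ortho.irr_apply_one_ne_zero ψ.2)]
      · rw [h5]
        exact h
  have main := Two.main (G := Matrix.SpecialLinearGroup (Fin 2) F) (M := M) hM hp2 hneg1 hnegc hneg2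
    (q := Fintype.card F) (m := (spl 0 F p).U.index) (spl 0 F p).card_F hG (not_dvd_index (spl 0 F p))
    (stIrr (spl 0 F p)) (hd.trans hU) (hz _ hneZ) hsing h3 (fun χ hχ => huniq χ (hU ▸ hχ))
  refine ⟨main.1, ?_, main.2⟩
  have hc := (blocks_SL (m := 0) (F := F) (p := p) hM).1
  rw [card_Zz] at hc
  refine hc.trans ?_
  obtain ⟨f, -, hf⟩ := FiniteField.card F p
  have hodd : Odd (Fintype.card F) := by
    rw [hf]
    exact (hp.out.odd_of_ne_two hp2).pow
  have h2 : 2 ∣ Nat.card Fˣ := by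
    rw [Nat.card_units, Nat.card_eq_fintype_card]
    obtain ⟨k, hk⟩ := hodd
    rw [hk]
    simp
  have h4 : (Nat.card Fˣ).gcd (0 + 2) = 2 := Nat.gcd_eq_right h2
  rw [h4]

end Cfsg.Agent.Lib.StBlocks.SL2
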